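import Cfsg.Prelude.Def_ChevStructure
import Mathlib

/-!
# Ladder MIL: the vector model of a simply laced datum and the table facts
-/

set_option autoImplicit false

namespace Cfsg.Agent.Lib.Lead.Mil

open Cfsg.Lie

/-- coordinates of the (co)root `r` -/
def vec (D : ChevalleyDatum) (r i : ℕ) : ℤ := (D.coroot.getD r #[]).getD i 0

/-- the Cartan integer `⟨s, r^∨⟩` -/
def ip (D : ChevalleyDatum) (r s : ℕ) : ℤ := ((List.range D.rank).map fun i => vec D r i * D.cartan i s).sum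

/-- table facts for a simply laced datum of type E6, E7, E8 -/
structure MilTab (D : ChevalleyDatum) : Prop where
  neg_lt : ∀ r < D.nroots, D.neg r < D.nroots
  vec_neg : ∀ r < D.nroots, ∀ i < D.rank, vec D (D.neg r) i = - vec D r i
  ip_symm : ∀ r < D.nroots, ∀ s < D.nroots, ip D r s = ip D s r
  ip_self : ∀ r < D.nroots, ip D r r = 2
  ip_le : ∀ r < D.nroots, ∀ s < D.nroots, ip D r s ≤ 2 ∧ (ip D r s = 2 → s = r)
  comm : ∀ r < D.nroots, ∀ s < D.nroots, s ≠ r → s ≠ D.neg r →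
    (0 ≤ ip D r s ∧ D.commTerms r s = []) ∨
    (ip D r s = -1 ∧ ∃ (k : ℕ) (c : ℤ), k < D.nroots ∧ (c = 1 ∨ c = -1) ∧
      D.commTerms r s = [(k, c, 1, 1)] ∧ D.commTerms s r = [(k, -c, 1, 1)] ∧
      ∀ i < D.rank, vec D k i = vec D r i + vec D s i)
  ex1 : ∀ r < D.nroots, ∀ s < D.nroots, 0 ≤ ip D r s →
    ∃ a < D.nroots, ip D s a = 1 ∧ 0 ≤ ip D r a ∧ ip D r a ≤ ip D r s
  ex2 : ∀ g < D.nroots, ∀ d < D.nroots, ip D g d = -1 →
    ∃ e < D.nroots, ip D d e = 1 ∧ ip D g e = 0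

end Cfsg.Agent.Lib.Lead.Mil
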