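import Mathlib

/-!
# Ladder MIL: Milnor's trick for central extensions of simply laced Steinberg systems (any field)
-/

set_option autoImplicit false
open scoped commutatorElement

namespace Cfsg.Agent.Lib.Lead.Mil

/-- combinatorial axioms: `Cm r s` = "(r,s) ≥ 0" (root elements commute), `Sm r s k c` = "r + s = k with sign c". -/
structure Ax {R K : Type*} [CommRing K] (Cm : R → R → Prop) (Sm : R → R → R → K → Prop) : Prop where
  cm_refl : ∀ r, Cm r r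
  cm_symm : ∀ {r s}, Cm r s → Cm s r
  sm_sq : ∀ {r s k c}, Sm r s k c → c * c = 1
  sm_swap : ∀ {r s k c}, Sm r s k c → Sm s r k (-c)
  sm_cm : ∀ {r s k c}, Sm r s k c → Cm k r ∧ Cm k s
  split : ∀ {r s}, Cm r s → ∃ a b c, Sm a b s c ∧ Cm r a ∧ Cm r b
  chainR : ∀ {g d a c}, Sm g d a c → ∃ d1 d2 e c1 c2 c3,
    Sm d1 d2 d c1 ∧ Sm g d1 e c2 ∧ Cm g d2 ∧ Sm e d2 a c3 ∧ Cm e d
  conn : ∀ {g d g' d' a c c'}, Sm g d a c → Sm g' d' a c' →
    (g' = g ∧ d' = d ∧ c' = c) ∨ (g' = d ∧ d' = g ∧ c' = -c) ∨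
    (∃ m c1 c2, Sm g' m g c1 ∧ Sm m d d' c2 ∧ Cm g' d ∧ Cm g d') ∨
    (∃ m c1 c2, Sm g' m d c1 ∧ Sm m g d' c2 ∧ Cm g' g ∧ Cm d d')

/-- a family of root elements satisfying (R1), (R2) -/
structure Sys {R K G : Type*} [CommRing K] [Group G] (Cm : R → R → Prop) (Sm : R → R → R → K → Prop)
    (x : R → K → G) : Prop where
  add : ∀ r t u, x r (t + u) = x r t * x r u
  cm : ∀ {r s}, Cm r s → ∀ t u, Commute (x r t) (x s u)
  sm : ∀ {r s k c}, Sm r s k c → ∀ t u, ⁅x r t, x s u⁆ = x k (c * t * u)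

/-- an A3 chain `a1, a2, a3` -/
structure Chain {R K : Type*} [CommRing K] (Cm : R → R → Prop) (Sm : R → R → R → K → Prop)
    (a1 a2 a3 a12 a23 a : R) (c12 c23 c1 c3 : K) : Prop where
  h12 : Sm a1 a2 a12 c12
  h23 : Sm a2 a3 a23 c23
  h13 : Cm a1 a3
  h1 : Sm a1 a23 a c1
  h3 : Sm a12 a3 a c3
  hm : Cm a12 a23

section
variable {G E : Type*} [Group G] [Group E] {π : E →* G}

theorem absorb_left {g z h : E} (hz : ∀ y, z * y = y * z) : ⁅g * z, h⁆ = ⁅g, h⁆ := by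
  simp only [commutatorElement_def, mul_inv_rev]
  have : g * z * h = g * h * z := by rw [mul_assoc, hz, ← mul_assoc]
  rw [this]; group

theorem absorb_right {g z h : E} (hz : ∀ y, z * y = y * z) : ⁅g, h * z⁆ = ⁅g, h⁆ := by
  simp only [commutatorElement_def, mul_inv_rev]
  have h2 : g * (h * z) * g⁻¹ = g * h * g⁻¹ * z := by
    rw [← mul_assoc, mul_assoc (g * h), hz, ← mul_assoc]
  rw [h2]; group

/-- commutators of lifts only depend on the images -/
theorem comm_congr (hc : π.ker ≤ Subgroup.center E) {a a' b b' : E} (h1 : π a = π a') (h2 : π b = π b') :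
    ⁅a, b⁆ = ⁅a', b'⁆ := by
  have hz : a⁻¹ * a' ∈ Subgroup.center E :=
    hc (by rw [MonoidHom.mem_ker, map_mul, map_inv, h1, inv_mul_cancel])
  have hw : b⁻¹ * b' ∈ Subgroup.center E :=
    hc (by rw [MonoidHom.mem_ker, map_mul, map_inv, h2, inv_mul_cancel])
  rw [Subgroup.mem_center_iff] at hz hw
  have e1 : a' = a * (a⁻¹ * a') := by group
  have e2 : b' = b * (b⁻¹ * b') := by group
  rw [e1, e2, absorb_left (fun y => (hz y).symm), absorb_right (fun y => (hw y).symm)]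

theorem commute_comm (hc : π.ker ≤ Subgroup.center E) {a v w : E}
    (h1 : Commute (π a) (π v)) (h2 : Commute (π a) (π w)) : Commute a ⁅v, w⁆ := by
  have e : a * ⁅v, w⁆ * a⁻¹ = ⁅a * v * a⁻¹, a * w * a⁻¹⁆ := by
    simp only [commutatorElement_def]; group
  have e2 : ⁅a * v * a⁻¹, a * w * a⁻¹⁆ = ⁅v, w⁆ := by
    apply comm_congr hc
    · rw [map_mul, map_mul, map_inv, h1.eq, mul_inv_cancel_right]
    · rw [map_mul, map_mul, map_inv, h2.eq, mul_inv_cancel_right]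
  rw [e2] at e
  exact mul_inv_eq_iff_eq_mul.1 e

theorem commute_of_eq (hc : π.ker ≤ Subgroup.center E) {a b b' : E} (h : π b = π b') (hb : Commute a b') :
    Commute a b := by
  have hw : b'⁻¹ * b ∈ Subgroup.center E :=
    hc (by rw [MonoidHom.mem_ker, map_mul, map_inv, h, inv_mul_cancel])
  rw [Subgroup.mem_center_iff] at hw
  have e2 : b = b' * (b'⁻¹ * b) := by group
  rw [e2]
  exact hb.mul_right (hw a)

/-- the group identity behind ASSOC -/
theorem assoc_aux {u v w : E} (huw : Commute u w) (hpq : Commute ⁅u, v⁆ ⁅v, w⁆)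
    (hr : Commute ⁅⁅u, v⁆, w⁆ ⁅v, w⁆) : ⁅u, ⁅v, w⁆⁆ = ⁅⁅u, v⁆, w⁆ := by
  set p := ⁅u, v⁆ with hp
  set q := ⁅v, w⁆ with hq
  have a1 : u * w * u⁻¹ = w := by rw [huw.eq, mul_inv_cancel_right]
  have a2 : q * w = v * w * v⁻¹ := by rw [hq, commutatorElement_def]; group
  have a3 : p * v = u * v * u⁻¹ := by rw [hp, commutatorElement_def]; group
  have e1 : ⁅u, q⁆ * q * w = p * q * w * p⁻¹ := by
    calc ⁅u, q⁆ * q * w = u * (q * w) * u⁻¹ * (u * w * u⁻¹)⁻¹ * w := by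
          simp only [commutatorElement_def]; group
      _ = u * (v * w * v⁻¹) * u⁻¹ := by rw [a1, a2]; group
      _ = (u * v * u⁻¹) * (u * w * u⁻¹) * (u * v * u⁻¹)⁻¹ := by group
      _ = (p * v) * w * (p * v)⁻¹ := by rw [a1, a3]
      _ = p * (v * w * v⁻¹) * p⁻¹ := by group
      _ = p * q * w * p⁻¹ := by rw [← a2]; group
  have e2 : p * q * w * p⁻¹ = ⁅p, w⁆ * q * w := by
    calc p * q * w * p⁻¹ = q * (p * w * p⁻¹ * w⁻¹) * w := by rw [hpq.eq]; group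
      _ = q * ⁅p, w⁆ * w := by rw [commutatorElement_def]
      _ = ⁅p, w⁆ * q * w := by rw [hr.eq]
  rw [e2] at e1
  exact mul_right_cancel (mul_right_cancel e1)

end

section
variable {R K G E : Type*} [CommRing K] [Group G] [Group E]
variable {Cm : R → R → Prop} {Sm : R → R → R → K → Prop} {x : R → K → G}
variable {π : E →* G}

/-- STEP1: lifts of commuting root elements commute -/
theorem step1 (hA : Ax Cm Sm) (hS : Sys Cm Sm x) (hπ : Function.Surjective π)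
    (hc : π.ker ≤ Subgroup.center E) {r s : R} (h : Cm r s) {t u : K} {a b : E}
    (ha : π a = x r t) (hb : π b = x s u) : Commute a b := by
  obtain ⟨a', b', c, h1, h2, h3⟩ := hA.split h
  obtain ⟨v, hv⟩ := hπ (x a' (c * u))
  obtain ⟨w, hw⟩ := hπ (x b' 1)
  have e : π b = π ⁅v, w⁆ := by
    rw [map_commutatorElement, hv, hw, hS.sm h1, hb]
    congr 1
    have := hA.sm_sq h1
    linear_combination (-u) * this
  refine commute_of_eq hc e (commute_comm hc ?_ ?_)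
  · rw [ha, hv]; exact hS.cm h2 _ _
  · rw [ha, hw]; exact hS.cm h3 _ _

/-- ASSOC -/
theorem assoc (hA : Ax Cm Sm) (hS : Sys Cm Sm x) (hπ : Function.Surjective π)
    (hc : π.ker ≤ Subgroup.center E) {a1 a2 a3 a12 a23 a : R} {c12 c23 c1 c3 : K}
    (C : Chain Cm Sm a1 a2 a3 a12 a23 a c12 c23 c1 c3) {p q r : K} {u v w : E}
    (hu : π u = x a1 p) (hv : π v = x a2 q) (hw : π w = x a3 r) :
    ⁅u, ⁅v, w⁆⁆ = ⁅⁅u, v⁆, w⁆ := by
  have h1 : π ⁅u, v⁆ = x a12 (c12 * p * q) := by rw [map_commutatorElement, hu, hv, hS.sm C.h12]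
  have h2 : π ⁅v, w⁆ = x a23 (c23 * q * r) := by rw [map_commutatorElement, hv, hw, hS.sm C.h23]
  have h3 : π ⁅⁅u, v⁆, w⁆ = x a (c3 * (c12 * p * q) * r) := by
    rw [map_commutatorElement, h1, hw, hS.sm C.h3]
  exact assoc_aux (step1 hA hS hπ hc C.h13 hu hw) (step1 hA hS hπ hc C.hm h1 h2)
    (step1 hA hS hπ hc (hA.sm_cm C.h1).2 h3 h2)

/-- SIGN -/
theorem sign (hA : Ax Cm Sm) (hS : Sys Cm Sm x) (hinj : ∀ r t u, x r t = x r u → t = u)
    {a1 a2 a3 a12 a23 a : R} {c12 c23 c1 c3 : K}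
    (C : Chain Cm Sm a1 a2 a3 a12 a23 a c12 c23 c1 c3) : c1 * c23 = c3 * c12 := by
  have := assoc (π := MonoidHom.id G) hA hS (fun g => ⟨g, rfl⟩)
    (by intro z hz; rw [MonoidHom.mem_ker, MonoidHom.id_apply] at hz; rw [hz]; exact one_mem _) C
    (p := 1) (q := 1) (r := 1) (u := x a1 1) (v := x a2 1) (w := x a3 1) rfl rfl rfl
  rw [hS.sm C.h23, hS.sm C.h12, hS.sm C.h1, hS.sm C.h3] at this
  have := hinj _ _ _ this
  linear_combination this

/-- ADD -/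
theorem addR (hA : Ax Cm Sm) (hS : Sys Cm Sm x) (hπ : Function.Surjective π)
    (hc : π.ker ≤ Subgroup.center E) {g d a : R} {c : K} (h : Sm g d a c) {s t t' : K} {u v v' w : E}
    (hu : π u = x g s) (hv : π v = x d t) (hv' : π v' = x d t') (hw : π w = x d (t + t')) :
    ⁅u, w⁆ = ⁅u, v⁆ * ⁅u, v'⁆ := by
  have e1 : ⁅u, w⁆ = ⁅u, v * v'⁆ := comm_congr hc rfl (by rw [hw, map_mul, hv, hv', hS.add])
  have h3 : π ⁅u, v'⁆ = x a (c * s * t') := by rw [map_commutatorElement, hu, hv', hS.sm h]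
  have hcm : Commute ⁅u, v'⁆ v := step1 hA hS hπ hc (hA.sm_cm h).2 h3 hv
  have e2 : ⁅u, v * v'⁆ = ⁅u, v⁆ * (v * ⁅u, v'⁆ * v⁻¹) := by
    simp only [commutatorElement_def]; group
  rw [e1, e2, ← hcm.eq, mul_inv_cancel_right]

/-- SCAL -/
theorem scal (hA : Ax Cm Sm) (hS : Sys Cm Sm x) (hπ : Function.Surjective π)
    (hc : π.ker ≤ Subgroup.center E) {g d a : R} {c : K} (h : Sm g d a c) {s t : K} {u v u' v' : E}
    (hu : π u = x g s) (hv : π v = x d t) (hu' : π u' = x g 1) (hv' : π v' = x d (s * t)) :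
    ⁅u, v⁆ = ⁅u', v'⁆ := by
  obtain ⟨d1, d2, e, c1, c2, c3, h1, h2, h3, h4, h5⟩ := hA.chainR h
  have C : Chain Cm Sm g d1 d2 e d a c2 c1 c c3 := ⟨h2, h1, h3, h, h4, h5⟩
  have hsq := hA.sm_sq h1
  obtain ⟨V, hV⟩ := hπ (x d1 (c1 * t))
  obtain ⟨V', hV'⟩ := hπ (x d1 (c1 * (s * t)))
  obtain ⟨W, hW⟩ := hπ (x d2 1)
  have e1 : ⁅u, v⁆ = ⁅u, ⁅V, W⁆⁆ := by
    apply comm_congr hc rfl
    rw [map_commutatorElement, hV, hW, hS.sm h1, hv]
    congr 1
    linear_combination (-t) * hsq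
  have e2 : ⁅u', v'⁆ = ⁅u', ⁅V', W⁆⁆ := by
    apply comm_congr hc rfl
    rw [map_commutatorElement, hV', hW, hS.sm h1, hv']
    congr 1
    linear_combination (-(s * t)) * hsq
  rw [e1, e2, assoc hA hS hπ hc C hu hV hW, assoc hA hS hπ hc C hu' hV' hW]
  apply comm_congr hc _ rfl
  rw [map_commutatorElement, map_commutatorElement, hu, hV, hu', hV', hS.sm h2, hS.sm h2]
  congr 1
  ring

end

end Cfsg.Agent.Lib.Lead.Mil
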