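import Cfsg.Agent.Lib.Lead.Mil.Abs

/-!
# Ladder MIL: canonical lifts
-/

set_option autoImplicit false
open scoped commutatorElement

namespace Cfsg.Agent.Lib.Lead.Mil

section
variable {R K G E : Type*} [CommRing K] [Group G] [Group E]
variable {Cm : R → R → Prop} {Sm : R → R → R → K → Prop} {x : R → K → G}
variable {π : E →* G}

/-- a set-theoretic section -/
noncomputable def lf (hπ : Function.Surjective π) (g : G) : E := Classical.choose (hπ g)

theorem π_lf (hπ : Function.Surjective π) (g : G) : π (lf hπ g) = g := Classical.choose_spec (hπ g)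

/-- the candidate lift attached to a decomposition -/
noncomputable def gg (hπ : Function.Surjective π) (x : R → K → G) (g d : R) (c t : K) : E :=
  ⁅lf hπ (x g 1), lf hπ (x d (c * t))⁆

theorem π_gg (hA : Ax Cm Sm) (hS : Sys Cm Sm x) (hπ : Function.Surjective π) {g d a : R} {c : K}
    (h : Sm g d a c) (t : K) : π (gg hπ x g d c t) = x a t := by
  unfold gg
  rw [map_commutatorElement, π_lf, π_lf, hS.sm h]
  congr 1
  linear_combination t * hA.sm_sq h

theorem gg_add (hA : Ax Cm Sm) (hS : Sys Cm Sm x) (hπ : Function.Surjective π)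
    (hc : π.ker ≤ Subgroup.center E) {g d a : R} {c : K} (h : Sm g d a c) (t u : K) :
    gg hπ x g d c (t + u) = gg hπ x g d c t * gg hπ x g d c u := by
  unfold gg
  exact addR hA hS hπ hc h (π_lf hπ _) (π_lf hπ _) (π_lf hπ _) (by rw [π_lf, mul_add])

theorem gg_zero (hA : Ax Cm Sm) (hS : Sys Cm Sm x) (hπ : Function.Surjective π)
    (hc : π.ker ≤ Subgroup.center E) {g d a : R} {c : K} (h : Sm g d a c) :
    gg hπ x g d c 0 = 1 := by
  have := gg_add hA hS hπ hc h 0 0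
  rw [add_zero] at this
  exact (left_eq_mul.1 this)

theorem gg_neg (hA : Ax Cm Sm) (hS : Sys Cm Sm x) (hπ : Function.Surjective π)
    (hc : π.ker ≤ Subgroup.center E) {g d a : R} {c : K} (h : Sm g d a c) (t : K) :
    gg hπ x g d c (-t) = (gg hπ x g d c t)⁻¹ := by
  have := gg_add hA hS hπ hc h (-t) t
  rw [neg_add_cancel, gg_zero hA hS hπ hc h] at this
  exact eq_inv_of_mul_eq_one_left this.symm

/-- every commutator of lifts is a `gg` -/
theorem comm_eq_gg (hA : Ax Cm Sm) (hS : Sys Cm Sm x) (hπ : Function.Surjective π)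
    (hc : π.ker ≤ Subgroup.center E) {g d a : R} {c : K} (h : Sm g d a c) {s t : K} {u v : E}
    (hu : π u = x g s) (hv : π v = x d t) : ⁅u, v⁆ = gg hπ x g d c (c * s * t) := by
  unfold gg
  refine scal hA hS hπ hc h hu hv (π_lf hπ _) ?_
  rw [π_lf]
  congr 1
  linear_combination (s * t) * hA.sm_sq h

/-- SWAP -/
theorem gg_swap (hA : Ax Cm Sm) (hS : Sys Cm Sm x) (hπ : Function.Surjective π)
    (hc : π.ker ≤ Subgroup.center E) {g d a : R} {c : K} (h : Sm g d a c) (t : K) :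
    gg hπ x d g (-c) t = gg hπ x g d c t := by
  have e : gg hπ x d g (-c) t = (⁅lf hπ (x g (-c * t)), lf hπ (x d 1)⁆)⁻¹ := by
    unfold gg
    rw [commutatorElement_inv]
  rw [e, comm_eq_gg hA hS hπ hc h (π_lf hπ _) (π_lf hπ _), ← gg_neg hA hS hπ hc h]
  congr 1
  linear_combination t * hA.sm_sq h

/-- MOVE -/
theorem gg_move (hA : Ax Cm Sm) (hS : Sys Cm Sm x) (hinj : ∀ r t u, x r t = x r u → t = u)
    (hπ : Function.Surjective π) (hc : π.ker ≤ Subgroup.center E)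
    {a1 a2 a3 a12 a23 a : R} {c12 c23 c1 c3 : K}
    (C : Chain Cm Sm a1 a2 a3 a12 a23 a c12 c23 c1 c3) (t : K) :
    gg hπ x a1 a23 c1 t = gg hπ x a12 a3 c3 t := by
  have hs := sign hA hS hinj C
  have q12 := hA.sm_sq C.h12
  have q23 := hA.sm_sq C.h23
  have q3 := hA.sm_sq C.h3
  obtain ⟨V, hV⟩ := hπ (x a2 (c23 * c1 * t))
  obtain ⟨W, hW⟩ := hπ (x a3 1)
  have hU := π_lf hπ (x a1 1)
  have e1 : gg hπ x a1 a23 c1 t = ⁅lf hπ (x a1 1), ⁅V, W⁆⁆ := by
    unfold gg
    apply comm_congr hc rfl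
    rw [π_lf, map_commutatorElement, hV, hW, hS.sm C.h23]
    congr 1
    linear_combination (-(c1 * t)) * q23
  have h1 : π ⁅lf hπ (x a1 1), V⁆ = x a12 (c12 * 1 * (c23 * c1 * t)) := by
    rw [map_commutatorElement, hU, hV, hS.sm C.h12]
  rw [e1, assoc hA hS hπ hc C hU hV hW, comm_eq_gg hA hS hπ hc C.h3 h1 hW]
  congr 1
  linear_combination (c3 * c12 * t) * hs + (c3 * c3 * t) * q12 + t * q3

/-- INDEP -/
theorem gg_indep (hA : Ax Cm Sm) (hS : Sys Cm Sm x) (hinj : ∀ r t u, x r t = x r u → t = u)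
    (hπ : Function.Surjective π) (hc : π.ker ≤ Subgroup.center E)
    {g d g' d' a : R} {c c' : K} (h : Sm g d a c) (h' : Sm g' d' a c') (t : K) :
    gg hπ x g' d' c' t = gg hπ x g d c t := by
  rcases hA.conn h h' with ⟨rfl, rfl, rfl⟩ | ⟨rfl, rfl, rfl⟩ | ⟨m, c1, c2, h1, h2, h3, h4⟩ |
    ⟨m, c1, c2, h1, h2, h3, h4⟩
  · rfl
  · exact gg_swap hA hS hπ hc h t
  · exact gg_move hA hS hinj hπ hc (⟨h1, h2, h3, h', h, h4⟩ : Chain Cm Sm g' m d g d' a c1 c2 c' c) t
  · rw [gg_move hA hS hinj hπ hc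
      (⟨h1, h2, h3, h', hA.sm_swap h, h4⟩ : Chain Cm Sm g' m g d d' a c1 c2 c' (-c)) t]
    exact gg_swap hA hS hπ hc h t

/-- **MIL, abstract form**: (R1), (R2) lift to every central extension. -/
theorem exists_lift (hA : Ax Cm Sm) (hS : Sys Cm Sm x) (hinj : ∀ r t u, x r t = x r u → t = u)
    (hπ : Function.Surjective π) (hc : π.ker ≤ Subgroup.center E) :
    ∃ X : R → K → E, (∀ r t, π (X r t) = x r t) ∧ Sys Cm Sm X := by
  have hdec : ∀ a : R, ∃ p : R × R × K, Sm p.1 p.2.1 a p.2.2 := by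
    intro a
    obtain ⟨g, d, c, h, -, -⟩ := hA.split (hA.cm_refl a)
    exact ⟨(g, d, c), h⟩
  choose p hp using hdec
  have hX : ∀ r t, π (gg hπ x (p r).1 (p r).2.1 (p r).2.2 t) = x r t := fun r t => π_gg hA hS hπ (hp r) t
  refine ⟨fun r t => gg hπ x (p r).1 (p r).2.1 (p r).2.2 t, hX, ?_, ?_, ?_⟩
  · intro r t u
    exact gg_add hA hS hπ hc (hp r) t u
  · intro r s h t u
    exact step1 hA hS hπ hc h (hX r t) (hX s u)
  · intro r s k c h t u
    show ⁅gg hπ x (p r).1 (p r).2.1 (p r).2.2 t, gg hπ x (p s).1 (p s).2.1 (p s).2.2 u⁆ = _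
    rw [comm_eq_gg hA hS hπ hc h (hX r t) (hX s u)]
    exact gg_indep hA hS hinj hπ hc (hp k) h _

end

end Cfsg.Agent.Lib.Lead.Mil
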