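import Cfsg.Agent.Lib.Helper67.MilAX1
import Cfsg.Agent.Lib.Helper67.MilSPLIT
import Cfsg.Agent.Lib.Helper67.MilCHAINR
import Cfsg.Agent.Lib.Helper67.MilCONN

/-!
# Ladder MIL: the axioms follow from the table facts
-/

set_option autoImplicit false

namespace Cfsg.Agent.Lib.Lead.Mil

open Cfsg.Lie

variable {D : ChevalleyDatum}

theorem ax_of_tab (T : MilTab D) (K : Type*) [CommRing K] : Ax (CmD D) (SmD D K) where
  cm_refl r := by unfold CmD; rw [T.ip_self r r.2]; norm_num
  cm_symm {r s} h := by unfold CmD at *; rw [T.ip_symm s s.2 r r.2]; exact h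
  sm_sq h := ax_sm_sq K h
  sm_swap h := ax_sm_swap T K h
  sm_cm h := ax_sm_cm T K h
  split h := ax_split T K h
  chainR h := ax_chainR T K h
  conn h h' := ax_conn T K h h'

end Cfsg.Agent.Lib.Lead.Mil
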