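import Cfsg.Agent.Lib.Lead.Mil.Inst
import Cfsg.Agent.Lib.Helper23.StIso

set_option autoImplicit false
open scoped commutatorElement

namespace Cfsg.Agent.Lib.Lead.Mil

open Cfsg Cfsg.Lie Cfsg.Agent.Lib.Helper23 Cfsg.Agent.Lib.Helper23.StP Cfsg.Agent.Lib.Helper22

variable {D : ChevalleyDatum} {K : Type*} [Field K]

theorem Sys.zero {R G : Type*} [Group G] {Cm : R → R → Prop} {Sm : R → R → R → K → Prop} {x : R → K → G}
    (h : Sys Cm Sm x) (r : R) : x r 0 = 1 := by
  have := h.add r 0 0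
  rw [add_zero] at this
  exact left_eq_mul.1 this

theorem Sys.neg {R G : Type*} [Group G] {Cm : R → R → Prop} {Sm : R → R → R → K → Prop} {x : R → K → G}
    (h : Sys Cm Sm x) (r : R) (t : K) : x r (-t) = (x r t)⁻¹ := by
  have := h.add r (-t) t
  rw [neg_add_cancel, h.zero] at this
  exact eq_inv_of_mul_eq_one_left this.symm

/-- a MIL system in any group gives a homomorphism out of the group presented by (R1), (R2) -/
theorem exists_hom (T : MilTab D) {Γ : Type*} [Group Γ] (X : Fin D.nroots → K → Γ)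
    (hX : Sys (CmD D) (SmD D K) X) :
    ∃ τ : D.SteinbergCover K →* Γ, ∀ (r : Fin D.nroots) (t : K), τ (D.scGen K r t) = X r t := by
  let f : Fin D.nroots × K → Γ := fun p => X p.1 p.2
  have hst : ∀ (r : Fin D.nroots) (t : K), FreeGroup.lift f (D.stX (r : ℕ) t) = X r t := by
    intro r t
    unfold ChevalleyDatum.stX
    rw [dif_pos r.2, FreeGroup.lift_apply_of]
  have key : ∀ g ∈ D.steinbergRelsAB K, FreeGroup.lift f g = 1 := by
    rintro g (⟨r, t₁, t₂, hr, rfl⟩ | ⟨r, s, t, u, hr, hs, h1, h2, rfl⟩)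
    · have := hst ⟨r, hr⟩
      simp only at this
      simp only [map_mul, map_inv, this, hX.add, mul_inv_cancel]
    · have er := hst ⟨r, hr⟩
      have es := hst ⟨s, hs⟩
      simp only at er es
      simp only [map_mul, map_inv, er, es]
      rcases T.comm r hr s hs h1 h2 with ⟨h3, h4⟩ | ⟨h3, k, c, hk, hc, h4, h5, h6⟩
      · unfold ChevalleyDatum.commWord
        rw [h4]
        simp only [List.map_nil, ChevalleyDatum.stWord, List.prod_nil, map_one, inv_one, mul_one]
        have hcm : Commute (X ⟨r, hr⟩ t) (X ⟨s, hs⟩ u) := hX.cm (r := ⟨r, hr⟩) (s := ⟨s, hs⟩) h3 t u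
        have : (X ⟨s, hs⟩ u)⁻¹ * (X ⟨r, hr⟩ t)⁻¹ * X ⟨s, hs⟩ u * X ⟨r, hr⟩ t =
            (X ⟨s, hs⟩ u)⁻¹ * (X ⟨r, hr⟩ t)⁻¹ * (X ⟨s, hs⟩ u * X ⟨r, hr⟩ t) := by group
        rw [this, ← hcm.eq]
        group
      · have hsm : SmD D K ⟨s, hs⟩ ⟨r, hr⟩ ⟨k, hk⟩ (-(c : K)) := by
          refine ⟨by rw [← h3]; exact T.ip_symm s hs r hr, fun i hi => ?_, c, hc, h4, rfl⟩
          rw [h6 i hi, add_comm]
        have := hX.sm hsm (-u) (-t)
        rw [hX.neg, hX.neg, commutatorElement_def, inv_inv, inv_inv] at this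
        rw [this]
        unfold ChevalleyDatum.commWord
        rw [h4]
        have ek := hst ⟨k, hk⟩
        simp only at ek
        simp only [List.map_cons, List.map_nil, ChevalleyDatum.stWord, List.prod_cons, List.prod_nil, mul_one, ek]
        rw [mul_inv_eq_one]
        congr 1
        ring
  refine ⟨PresentedGroup.toGroup (f := f) key, fun r t => ?_⟩
  rw [← hst r t]
  rfl

end Cfsg.Agent.Lib.Lead.Mil
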