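import Cfsg.Agent.Lib.Lead.Mil.Abs2
import Cfsg.Agent.Lib.Lead.Mil.Root

/-!
# Ladder MIL: the relations `Cm`, `Sm` of a datum; statements of the rungs BIL, AX1, SPLIT, CHAINR, CONN
-/

set_option autoImplicit false

namespace Cfsg.Agent.Lib.Lead.Mil

open Cfsg.Lie

/-- `(r, s) ≥ 0` -/
def CmD (D : ChevalleyDatum) (r s : Fin D.nroots) : Prop := 0 ≤ ip D r s

/-- `r + s = k`, and `⁅x_r(t), x_s(u)⁆ = x_k(c t u)` (Mathlib's commutator `a b a⁻¹ b⁻¹`) -/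
def SmD (D : ChevalleyDatum) (K : Type*) [CommRing K] (r s k : Fin D.nroots) (c : K) : Prop :=
  ip D r s = -1 ∧ (∀ i < D.rank, vec D k i = vec D r i + vec D s i) ∧
    ∃ c0 : ℤ, (c0 = 1 ∨ c0 = -1) ∧ D.commTerms s r = [((k : ℕ), c0, 1, 1)] ∧ c = -(c0 : K)

end Cfsg.Agent.Lib.Lead.Mil
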