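import Cfsg.Agent.Lib.Lead.Mil.SYS
import Cfsg.Agent.Lib.Lead.Mil.HOM
import Cfsg.Prelude.Def_KGroupFacts

set_option autoImplicit false
open scoped commutatorElement

namespace Cfsg.Agent.Lib.Lead.Mil

open Cfsg Cfsg.Lie Cfsg.Agent.Lib.Helper23 Cfsg.Agent.Lib.Helper23.StP Cfsg.Agent.Lib.Helper22

variable {D : ChevalleyDatum} {K : Type*} [Field K]

theorem mem_all (hD : D ∈ [chevE6, chevE7, chevE8]) :
    D ∈ [chevG2, chevB2, chevD4, chevF4, chevE6, chevE7, chevE8] := by
  simp only [List.mem_cons, List.not_mem_nil, or_false] at hD ⊢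
  tauto

/-- every central extension of the Steinberg group splits -/
theorem exists_section [Finite K] (hD : D ∈ [chevE6, chevE7, chevE8]) (T : MilTab D)
    (hAx : Ax (CmD D) (SmD D K)) {Γ : Type*} [Group Γ]
    (σ : Γ →* D.SteinbergGroup K) (hσ : Function.Surjective σ) (hc : σ.ker ≤ Subgroup.center Γ) :
    ∃ τ : D.SteinbergGroup K →* Γ, σ.comp τ = MonoidHom.id _ := by
  have hD' := mem_all hD
  have hA := addFact_of_mem K hD'
  let S := sysGroup hD' hA
  have hS := sys_of_stSys T S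
  have hinj : ∀ (r : Fin D.nroots) (t u : K), S.X r t = S.X r u → t = u := by
    intro r t u h
    have h2 := congrArg S.π h
    rw [S.hπ, S.hπ] at h2
    exact X_inj hD' hA r.2 h2
  obtain ⟨X, hX1, hX2⟩ := exists_lift hAx hS hinj hσ hc
  obtain ⟨τ0, hτ0⟩ := exists_hom T X hX2
  obtain ⟨e, he⟩ := cover_equiv (K := K) hD'
  refine ⟨τ0.comp e.symm.toMonoidHom, ?_⟩
  apply PresentedGroup.ext
  rintro ⟨r, t⟩
  have e2 : (PresentedGroup.of (r, t) : D.SteinbergGroup K) = D.stGen K r t := by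
    simp [ChevalleyDatum.stGen, ChevalleyDatum.stX, PresentedGroup.of]
  show σ (τ0 (e.symm (PresentedGroup.of (r, t)))) = PresentedGroup.of (r, t)
  rw [e2, ← he, MulEquiv.symm_apply_apply, hτ0, hX1, he]
  rfl

/-- a split stem extension is trivial (pure group theory) -/
theorem stem_trivial_of_section {Γ G : Type*} [Group Γ] [Group G] (σ : Γ →* G) (hσ : IsStemExtension σ)
    (τ : G →* Γ) (h : σ.comp τ = MonoidHom.id _) : ∀ z ∈ σ.ker, z = 1 := by
  obtain ⟨-, hc, hk⟩ := hσ
  have hτ : ∀ g, σ (τ g) = g := fun g => DFunLike.congr_fun h g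
  -- every element is `τ (σ y) * central`
  have hdec : ∀ y : Γ, (τ (σ y))⁻¹ * y ∈ Subgroup.center Γ := by
    intro y
    apply hc
    rw [MonoidHom.mem_ker, map_mul, map_inv, hτ, inv_mul_cancel]
  have hcomm : commutator Γ ≤ τ.range := by
    rw [commutator_def, Subgroup.commutator_le]
    intro a _ b _
    have : ⁅a, b⁆ = ⁅τ (σ a), τ (σ b)⁆ := by
      apply comm_congr (π := σ) hc
      · rw [hτ]
      · rw [hτ]
    rw [this, ← map_commutatorElement]
    exact ⟨_, rfl⟩
  intro z hz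
  obtain ⟨g, rfl⟩ := hcomm (hk hz)
  rw [MonoidHom.mem_ker, hτ] at hz
  rw [hz, map_one]

end Cfsg.Agent.Lib.Lead.Mil
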