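import Cfsg.Agent.Lib.Lead.Mil.Inst
import Cfsg.Agent.Lib.Helper23.StIso

set_option autoImplicit false
open scoped commutatorElement

namespace Cfsg.Agent.Lib.Lead.Mil

open Cfsg Cfsg.Lie Cfsg.Agent.Lib.Helper23 Cfsg.Agent.Lib.Helper23.StP Cfsg.Agent.Lib.Helper22

variable {D : ChevalleyDatum} {K : Type*} [Field K]

theorem ip_neg_self (T : MilTab D) {r : ℕ} (hr : r < D.nroots) : ip D r (D.neg r) = -2 := by
  rw [T.ip_symm r hr _ (T.neg_lt r hr)]
  have h := T.ip_self r hr
  unfold ip at *
  have : ((List.range D.rank).map fun i => vec D (D.neg r) i * D.cartan i r) =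
      (List.range D.rank).map fun i => (-1) * (vec D r i * D.cartan i r) := by
    apply List.map_congr_left
    intro i hi
    rw [T.vec_neg r hr i (List.mem_range.1 hi)]
    ring
  rw [this, List.sum_map_mul_left, h]
  norm_num

/-- a Steinberg system in helper23's sense is a system in the sense of MIL -/
theorem sys_of_stSys (T : MilTab D) {hA : AddFact D K} {Γ : Type*} [Group Γ] (S : StSys D K hA Γ) :
    Sys (CmD D) (SmD D K) (fun (r : Fin D.nroots) (t : K) => S.X r t) := by
  refine ⟨fun r t u => S.add r t u, ?_, ?_⟩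
  · intro r s h t u
    unfold CmD at h
    show Commute (S.X r t) (S.X s u)
    by_cases e : (s : ℕ) = r
    · rw [e]
      show S.X r t * S.X r u = S.X r u * S.X r t
      rw [← S.add, ← S.add, add_comm]
    · have e2 : (s : ℕ) ≠ D.neg r := by
        intro e2
        rw [e2, ip_neg_self T r.2] at h
        omega
      rcases T.comm r r.2 s s.2 e e2 with ⟨-, h2⟩ | ⟨h2, -⟩
      · have := S.comm r s t u r.2 s.2 e e2
        unfold ChevalleyDatum.commWord at this
        rw [h2] at this
        simp only [List.map_nil, WW_nil] at this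
        show S.X r t * S.X s u = S.X s u * S.X r t
        have h3 : S.X s u * S.X r t = S.X r t * S.X s u * ((S.X s u)⁻¹ * (S.X r t)⁻¹ * S.X s u * S.X r t) := by
          group
        rw [h3, this, mul_one]
      · omega
  · intro r s k c h t u
    obtain ⟨h1, -, c0, -, h3, rfl⟩ := h
    show ⁅S.X r t, S.X s u⁆ = S.X k (-(c0 : K) * t * u)
    have e : (r : ℕ) ≠ s := by
      intro e
      rw [e, T.ip_self s s.2] at h1
      omega
    have e2 : (r : ℕ) ≠ D.neg s := by
      intro e2
      rw [T.ip_symm r r.2 s s.2, e2, ip_neg_self T s.2] at h1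
      omega
    have := S.comm s r (-u) (-t) s.2 r.2 e e2
    unfold ChevalleyDatum.commWord at this
    rw [h3] at this
    simp only [List.map_cons, List.map_nil, WW_cons, WW_nil, mul_one, S.X_neg, inv_inv, pow_one, neg_neg] at this
    rw [commutatorElement_def, this]
    congr 1
    ring

end Cfsg.Agent.Lib.Lead.Mil
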